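import Mathlib
import Cfsg.Agent.Spor.Ru.TChD

/-! Generated by tools/pg: stabiliser chain tt -/

set_option autoImplicit false
set_option maxRecDepth 100000
set_option linter.unusedVariables false
set_option exponentiation.threshold 100000

namespace Cfsg.Agent.Spor.MRu

open Cfsg.Agent.Spor

theorem tt_slp0 : allLt (nat_lit 6) (fun i => force (Nat.add (nat_lit 2) i) (slpOK tt_S tt_defs (nat_lit 1755))) = true := by decide +kernel

theorem tt_ren : allLt (nat_lit 7) (fun x => force (tt_iota x) fun y => band (blt y (nat_lit 8)) (allRange (nat_lit 0) (nat_lit 1755) fun i => Nat.beq (tt_S y i) (tt_T x i))) = true := by decide +kernel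

theorem tt_invc : allLt (nat_lit 7) (fun x => force (tt_inv x) fun y => band (lettersLt (nat_lit 7) [x, y]) (fixesRange tt_T [x, y] (nat_lit 0) (nat_lit 1755))) = true := by decide +kernel

theorem tt_rels_p3_ok : tt_rels_p3.all (fun w => band (lettersLt (nat_lit 7) w) (fixesRange tt_T w (nat_lit 0) (nat_lit 1755))) = true := by decide +kernel

theorem tt_rels_p4_ok : tt_rels_p4.all (fun w => band (lettersLt (nat_lit 7) w) (fixesRange tt_T w (nat_lit 0) (nat_lit 1755))) = true := by decide +kernel

theorem tt_rels_p6_ok : tt_rels_p6.all (fun w => band (lettersLt (nat_lit 7) w) (fixesRange tt_T w (nat_lit 0) (nat_lit 1755))) = true := by decide +kernel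

theorem tt_rels_p7_ok : tt_rels_p7.all (fun w => band (lettersLt (nat_lit 7) w) (fixesRange tt_T w (nat_lit 0) (nat_lit 1755))) = true := by decide +kernel

theorem tt_rels_p10_ok : tt_rels_p10.all (fun w => band (lettersLt (nat_lit 7) w) (fixesRange tt_T w (nat_lit 0) (nat_lit 1755))) = true := by decide +kernel

theorem tt_rels_p11_ok : tt_rels_p11.all (fun w => band (lettersLt (nat_lit 7) w) (fixesRange tt_T w (nat_lit 0) (nat_lit 1755))) = true := by decide +kernel

theorem tt_rels_p13_ok : tt_rels_p13.all (fun w => band (lettersLt (nat_lit 7) w) (fixesRange tt_T w (nat_lit 0) (nat_lit 1755))) = true := by decide +kernel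

theorem tt_rels_p14_ok : tt_rels_p14.all (fun w => band (lettersLt (nat_lit 7) w) (fixesRange tt_T w (nat_lit 0) (nat_lit 1755))) = true := by decide +kernel

theorem tt_L2_c1 : tt_L2.rules.all (ruleOK tt_L2.m tt_L2.inv tt_rels_p0) = true := by decide +kernel
theorem tt_L2_c2 : tt_L2.subs.all (subOK tt_L2.m tt_L2.inv tt_hws) = true := by decide +kernel
theorem tt_L2_c3 : tt_L2.base = true := by decide +kernel

end Cfsg.Agent.Spor.MRu
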