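import Mathlib
import Cfsg.Agent.Spor.Ru.TChD

/-! Generated by tools/pg: stabiliser chain tt -/

set_option autoImplicit false
set_option maxRecDepth 100000
set_option linter.unusedVariables false
set_option exponentiation.threshold 100000

namespace Cfsg.Agent.Spor.MRu

open Cfsg.Agent.Spor

theorem tt_L2_s0 : tt_L2.slots (nat_lit 0) (nat_lit 10) = true := by decide +kernel

theorem tt_L2_o : band (allRange (nat_lit 0) (nat_lit 1755) (orbOK tt_T (nat_lit 2) (tt_E (nat_lit 2)) (Nat.beq (nat_lit 2)))) (band (Nat.ble (nat_lit 10) (count2 (nat_lit 1755) fun p => Nat.ble 256 (tt_E (nat_lit 2) p))) (allLt (nat_lit 0) (fun x => Nat.beq (tt_T x (nat_lit 2)) (nat_lit 2)))) = true := by decide +kernel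

theorem tt_L1_c1 : tt_L1.rules.all (ruleOK tt_L1.m tt_L1.inv tt_rels_p0) = true := by decide +kernel
theorem tt_L1_c2 : tt_L1.subs.all (subOK tt_L1.m tt_L1.inv tt_hws) = true := by decide +kernel
theorem tt_L1_c3 : tt_L1.base = true := by decide +kernel

theorem tt_L1_s0 : tt_L1.slots (nat_lit 0) (nat_lit 1024) = true := by decide +kernel

theorem tt_L1_o : band (allRange (nat_lit 0) (nat_lit 1755) (orbOK tt_T (nat_lit 4) (tt_E (nat_lit 1)) (Nat.beq (nat_lit 1)))) (band (Nat.ble (nat_lit 1024) (count2 (nat_lit 1755) fun p => Nat.ble 256 (tt_E (nat_lit 1) p))) (allLt (nat_lit 2) (fun x => Nat.beq (tt_T x (nat_lit 1)) (nat_lit 1)))) = true := by decide +kernel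

theorem tt_L0_c1 : tt_L0.rules.all (ruleOK tt_L0.m tt_L0.inv tt_rels_p0) = true := by decide +kernel
theorem tt_L0_c2 : tt_L0.subs.all (subOK tt_L0.m tt_L0.inv tt_hws) = true := by decide +kernel
theorem tt_L0_c3 : tt_L0.base = true := by decide +kernel

theorem tt_L0_s0 : tt_L0.slots (nat_lit 0) (nat_lit 1755) = true := by decide +kernel

theorem tt_L0_o : band (allRange (nat_lit 0) (nat_lit 1755) (orbOK tt_T (nat_lit 7) (tt_E (nat_lit 0)) (Nat.beq (nat_lit 0)))) (band (Nat.ble (nat_lit 1755) (count2 (nat_lit 1755) fun p => Nat.ble 256 (tt_E (nat_lit 0) p))) (allLt (nat_lit 4) (fun x => Nat.beq (tt_T x (nat_lit 0)) (nat_lit 0)))) = true := by decide +kernel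

end Cfsg.Agent.Spor.MRu
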