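import Mathlib
import Cfsg.Agent.Spor.Ru.TChC0
import Cfsg.Agent.Spor.Ru.TChC1

/-! Generated by tools/pg: stabiliser chain tt -/

set_option autoImplicit false
set_option maxRecDepth 100000
set_option linter.unusedVariables false
set_option exponentiation.threshold 100000

namespace Cfsg.Agent.Spor.MRu

open Cfsg.Agent.Spor

theorem tt_rels_p2_ok : tt_rels_p2.all (fun w => band (lettersLt (nat_lit 7) w) (fixesRange tt_T w (nat_lit 0) (nat_lit 1755))) = true := LT.all_node tt_rels_p3_ok tt_rels_p4_ok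

theorem tt_rels_p5_ok : tt_rels_p5.all (fun w => band (lettersLt (nat_lit 7) w) (fixesRange tt_T w (nat_lit 0) (nat_lit 1755))) = true := LT.all_node tt_rels_p6_ok tt_rels_p7_ok

theorem tt_rels_p1_ok : tt_rels_p1.all (fun w => band (lettersLt (nat_lit 7) w) (fixesRange tt_T w (nat_lit 0) (nat_lit 1755))) = true := LT.all_node tt_rels_p2_ok tt_rels_p5_ok

theorem tt_rels_p9_ok : tt_rels_p9.all (fun w => band (lettersLt (nat_lit 7) w) (fixesRange tt_T w (nat_lit 0) (nat_lit 1755))) = true := LT.all_node tt_rels_p10_ok tt_rels_p11_ok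

theorem tt_rels_p12_ok : tt_rels_p12.all (fun w => band (lettersLt (nat_lit 7) w) (fixesRange tt_T w (nat_lit 0) (nat_lit 1755))) = true := LT.all_node tt_rels_p13_ok tt_rels_p14_ok

theorem tt_rels_p8_ok : tt_rels_p8.all (fun w => band (lettersLt (nat_lit 7) w) (fixesRange tt_T w (nat_lit 0) (nat_lit 1755))) = true := LT.all_node tt_rels_p9_ok tt_rels_p12_ok

theorem tt_rels_p0_ok : tt_rels_p0.all (fun w => band (lettersLt (nat_lit 7) w) (fixesRange tt_T w (nat_lit 0) (nat_lit 1755))) = true := LT.all_node tt_rels_p1_ok tt_rels_p8_ok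

/-- The letters: a strong generating set, deepest stabiliser first. -/
noncomputable def tt_g {G : Type*} [Group G] (a : ℕ → G) : ℕ → G := fun x => slp a 2 tt_defs (tt_iota x)

theorem tt_tabs {G α : Type*} [Group G] [MulAction G α] {e : ℕ → α} {a : ℕ → G} (h0 : Tabs e 1755 tt_S a 2) : Tabs e 1755 tt_T (tt_g a) 7 :=
  Tabs.rename (ι := tt_iota) (g := slp a 2 tt_defs) ((Tabs.slp_base tt_defs h0).slp_add (by decide) _ tt_slp0) tt_ren

theorem tt_gen {G : Type*} [Group G] (a : ℕ → G) : genLt (tt_g a) 7 = genLt a 2 :=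
  genLt_slp_eq a tt_defs (back := getP 8 255 (nat_lit 0x504)) (by decide +kernel)

theorem tt_hinv {G α : Type*} [Group G] [MulAction G α] {e : ℕ → α} {a : ℕ → G} (h0 : Tabs e 1755 tt_S a 2) (hf : ∀ y ∈ genLt a 2, (∀ i < 1755, y • e i = e i) → y = 1) : ∀ x < 7, tt_g a x * tt_g a (tt_inv x) = 1 :=
  (tt_tabs h0).hinv (by rw [tt_gen]; exact hf) tt_invc

theorem tt_hrels {G α : Type*} [Group G] [MulAction G α] {e : ℕ → α} {a : ℕ → G} (h0 : Tabs e 1755 tt_S a 2) (hf : ∀ y ∈ genLt a 2, (∀ i < 1755, y • e i = e i) → y = 1) (i : ℕ) : evalW (tt_g a) (tt_rels_p0.get i) = 1 :=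
  (tt_tabs h0).rels_of_faithful (by rw [tt_gen]; exact hf) tt_rels_p0_ok i

theorem tt_L2_c4 : tt_L2.Upto tt_L2.N := ((TC.upto_zero tt_L2).step _ tt_L2_s0)
theorem tt_L2_c5 : tt_L2.UptoE tt_L2.N := (TC.uptoE_n tt_L2)
theorem tt_level2 {G α : Type*} [Group G] [MulAction G α] {e : ℕ → α} {a : ℕ → G} (he : Set.InjOn e (Set.Iio 1755)) (h0 : Tabs e 1755 tt_S a 2) (hf : ∀ y ∈ genLt a 2, (∀ i < 1755, y • e i = e i) → y = 1) :
    Level (genLt (tt_g a) 2) (genLt (tt_g a) 0) (e 2) 10 :=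
  Tabs.level (C := tt_L2) (tt_tabs h0) he (by decide) (by decide) (tt_hinv h0 hf) (tt_hrels h0 hf) tt_L2_c1 tt_L2_c2 tt_L2_c3 tt_L2_c4 tt_L2_c5 tt_L2_o

theorem tt_L1_c4 : tt_L1.Upto tt_L1.N := ((TC.upto_zero tt_L1).step _ tt_L1_s0)
theorem tt_L1_c5 : tt_L1.UptoE tt_L1.N := (TC.uptoE_n tt_L1)
theorem tt_level1 {G α : Type*} [Group G] [MulAction G α] {e : ℕ → α} {a : ℕ → G} (he : Set.InjOn e (Set.Iio 1755)) (h0 : Tabs e 1755 tt_S a 2) (hf : ∀ y ∈ genLt a 2, (∀ i < 1755, y • e i = e i) → y = 1) :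
    Level (genLt (tt_g a) 4) (genLt (tt_g a) 2) (e 1) 1024 :=
  Tabs.level (C := tt_L1) (tt_tabs h0) he (by decide) (by decide) (tt_hinv h0 hf) (tt_hrels h0 hf) tt_L1_c1 tt_L1_c2 tt_L1_c3 tt_L1_c4 tt_L1_c5 tt_L1_o

theorem tt_L0_c4 : tt_L0.Upto tt_L0.N := ((TC.upto_zero tt_L0).step _ tt_L0_s0)
theorem tt_L0_c5 : tt_L0.UptoE tt_L0.N := (TC.uptoE_n tt_L0)
theorem tt_level0 {G α : Type*} [Group G] [MulAction G α] {e : ℕ → α} {a : ℕ → G} (he : Set.InjOn e (Set.Iio 1755)) (h0 : Tabs e 1755 tt_S a 2) (hf : ∀ y ∈ genLt a 2, (∀ i < 1755, y • e i = e i) → y = 1) :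
    Level (genLt (tt_g a) 7) (genLt (tt_g a) 4) (e 0) 1755 :=
  Tabs.level (C := tt_L0) (tt_tabs h0) he (by decide) (by decide) (tt_hinv h0 hf) (tt_hrels h0 hf) tt_L0_c1 tt_L0_c2 tt_L0_c3 tt_L0_c4 tt_L0_c5 tt_L0_o

theorem tt_card2 {G α : Type*} [Group G] [MulAction G α] {e : ℕ → α} {a : ℕ → G} (he : Set.InjOn e (Set.Iio 1755)) (h0 : Tabs e 1755 tt_S a 2) (hf : ∀ y ∈ genLt a 2, (∀ i < 1755, y • e i = e i) → y = 1) :
    Nat.card (genLt (tt_g a) 2) = 10 :=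
  (tt_level2 he h0 hf).card (card_genLt_zero _)

theorem tt_base2 {G α : Type*} [Group G] [MulAction G α] {e : ℕ → α} {a : ℕ → G} (he : Set.InjOn e (Set.Iio 1755)) (h0 : Tabs e 1755 tt_S a 2) (hf : ∀ y ∈ genLt a 2, (∀ i < 1755, y • e i = e i) → y = 1) :
    IsBase e (genLt (tt_g a) 2) [2] :=
  (tt_level2 he h0 hf).base (isBase_genLt_zero _ _)

theorem tt_card1 {G α : Type*} [Group G] [MulAction G α] {e : ℕ → α} {a : ℕ → G} (he : Set.InjOn e (Set.Iio 1755)) (h0 : Tabs e 1755 tt_S a 2) (hf : ∀ y ∈ genLt a 2, (∀ i < 1755, y • e i = e i) → y = 1) :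
    Nat.card (genLt (tt_g a) 4) = 10240 :=
  (tt_level1 he h0 hf).card (tt_card2 he h0 hf)

theorem tt_base1 {G α : Type*} [Group G] [MulAction G α] {e : ℕ → α} {a : ℕ → G} (he : Set.InjOn e (Set.Iio 1755)) (h0 : Tabs e 1755 tt_S a 2) (hf : ∀ y ∈ genLt a 2, (∀ i < 1755, y • e i = e i) → y = 1) :
    IsBase e (genLt (tt_g a) 4) [1, 2] :=
  (tt_level1 he h0 hf).base (tt_base2 he h0 hf)

theorem tt_card0 {G α : Type*} [Group G] [MulAction G α] {e : ℕ → α} {a : ℕ → G} (he : Set.InjOn e (Set.Iio 1755)) (h0 : Tabs e 1755 tt_S a 2) (hf : ∀ y ∈ genLt a 2, (∀ i < 1755, y • e i = e i) → y = 1) :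
    Nat.card (genLt (tt_g a) 7) = 17971200 :=
  (tt_level0 he h0 hf).card (tt_card1 he h0 hf)

theorem tt_base0 {G α : Type*} [Group G] [MulAction G α] {e : ℕ → α} {a : ℕ → G} (he : Set.InjOn e (Set.Iio 1755)) (h0 : Tabs e 1755 tt_S a 2) (hf : ∀ y ∈ genLt a 2, (∀ i < 1755, y • e i = e i) → y = 1) :
    IsBase e (genLt (tt_g a) 7) [0, 1, 2] :=
  (tt_level0 he h0 hf).base (tt_base1 he h0 hf)

theorem tt_card {G α : Type*} [Group G] [MulAction G α] {e : ℕ → α} {a : ℕ → G} (he : Set.InjOn e (Set.Iio 1755)) (h0 : Tabs e 1755 tt_S a 2) (hf : ∀ y ∈ genLt a 2, (∀ i < 1755, y • e i = e i) → y = 1) :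
    Nat.card (genLt a 2) = 17971200 := by
  rw [← tt_gen]; exact tt_card0 he h0 hf

end Cfsg.Agent.Spor.MRu
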